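import Cfsg.Agent.H870.GE.Six
import Cfsg.Agent.H419.EP.Soc
import Cfsg.Agent.S1055

/-!
# S3499, own characteristic: `G₂(q)` in `Ω₇(q)` (`q` odd) and in `Sp₆(q)` (`q` even, `q ≥ 4`) (helper870)

* `g2_omega7`, `g2_omega7'` : `EPT A Γ`, `Model Q (omegaGL (quadFormOdd 3 F))`, socle `G₂(F)`: impossible;
* `g2_sp6`, `g2_sp6'` : `EPT A Γ`, `Model Q (spGL 3 F)`, characteristic 2, `|F| ≠ 2`, socle `G₂(F)`: impossible.
-/

set_option autoImplicit false
set_option linter.unusedSectionVars false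
set_option linter.style.haveILetI false

namespace Cfsg.Agent.H870.GE

open Cfsg Cfsg.Geo Matrix Cfsg.Agent.H161.Oct Subgroup Cfsg.Agent.H284 Cfsg.Agent.H419.EP
open Cfsg.Agent.H915.LD (Core core_of_residual Soc)
open Cfsg.Agent.H64.SubG2 (I7)

/-! ### the socle -/

theorem simple_G2 {F : Type*} [Field F] [Finite F] (h3 : 3 ≤ Nat.card F) : IsSimpleGroup ↥(Cfsg.Lie.G2 F) := by
  have hF : ∃ a : F, a ≠ 0 ∧ a ≠ 1 := by
    classical
    haveI := Fintype.ofFinite F
    by_contra hcon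
    push Not at hcon
    have h1 : (Finset.univ : Finset F) ⊆ {0, 1} := by
      intro x _
      by_cases hx : x = 0
      · simp [hx]
      · simp [hcon x hx]
    have h2 := Finset.card_le_card h1
    have h4 : ({0, 1} : Finset F).card ≤ 2 := Finset.card_le_two
    rw [Finset.card_univ, ← Nat.card_eq_fintype_card] at h2
    omega
  obtain ⟨e2⟩ := Cfsg.Agent.H638.G2Iso.equiv (F := F)
  haveI : IsSimpleGroup ↥(Lie.chevG2.group F) := (Cfsg.Agent.S1055.result hF).1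
  exact e2.isSimpleGroup

/-- normal simple subgroups with trivial centraliser are equal -/
theorem soc_le {Q : Type*} [Group Q] {A N N' : Subgroup Q} (hN : N ≤ A) (hN' : N' ≤ A)
    (hn : ∀ a ∈ A, ∀ n ∈ N, a * n * a⁻¹ ∈ N) (hn' : ∀ a ∈ A, ∀ n ∈ N', a * n * a⁻¹ ∈ N')
    (hc : ∀ a ∈ A, (∀ n ∈ N, a * n = n * a) → a = 1) (hs : IsSimpleGroup N) (hne : N' ≠ ⊥) : N ≤ N' := by
  have hnor : ((N ⊓ N').subgroupOf N).Normal := ⟨by
    rintro ⟨n, hn1⟩ hnn ⟨a, ha⟩
    exact ⟨N.mul_mem (N.mul_mem ha hn1) (N.inv_mem ha), hn' a (hN ha) n hnn.2⟩⟩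
  rcases hnor.eq_bot_or_eq_top with h1 | h1
  · exfalso
    have h2 : N ⊓ N' = ⊥ := by
      rw [Subgroup.eq_bot_iff_forall]
      intro k hk
      have h3 : (⟨k, hk.1⟩ : N) ∈ (N ⊓ N').subgroupOf N := hk
      rw [h1, mem_bot] at h3
      exact congrArg Subtype.val h3
    apply hne
    rw [Subgroup.eq_bot_iff_forall]
    intro k hk
    apply hc k (hN' hk)
    intro n hn1
    have h4 : k * n * k⁻¹ * n⁻¹ ∈ N ⊓ N' := by
      refine ⟨N.mul_mem (hn k (hN' hk) n hn1) (N.inv_mem hn1), ?_⟩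
      have : k * n * k⁻¹ * n⁻¹ = k * (n * k⁻¹ * n⁻¹) := by group
      rw [this]
      exact N'.mul_mem hk (hn' n (hN hn1) _ (N'.inv_mem hk))
    rw [h2, mem_bot] at h4
    rw [mul_inv_eq_one, mul_inv_eq_iff_eq_mul] at h4
    exact h4
  · intro n hn1
    have h3 : (⟨n, hn1⟩ : N) ∈ (N ⊓ N').subgroupOf N := by rw [h1]; exact mem_top _
    exact h3.2

/-- the socle is unique -/
theorem hasSoc_unique {Q : Type*} [Group Q] {A : Subgroup Q} {L L' : Type*} [Group L] [Group L'] (h : HasSoc A L)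
    (h' : HasSoc A L') (hL : IsSimpleGroup L) (hL' : IsSimpleGroup L') : Nonempty (L ≃* L') := by
  obtain ⟨N, h1, h2, h3, ⟨e⟩⟩ := h
  obtain ⟨N', h1', h2', h3', ⟨e'⟩⟩ := h'
  have hNs : IsSimpleGroup N := e.isSimpleGroup
  have hNs' : IsSimpleGroup N' := e'.isSimpleGroup
  have hne : ∀ K : Subgroup Q, IsSimpleGroup K → K ≠ ⊥ := by
    intro K hK e
    have := hK.toNontrivial
    rw [e] at this
    exact not_nontrivial _ this
  have h4 : N = N' := le_antisymm (soc_le h1 h1' h2 h2' h3 hNs (hne _ hNs')) (soc_le h1' h1 h2' h2 h3' hNs' (hne _ hNs))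
  subst h4
  exact ⟨e.symm.trans e'⟩

section data

variable {Q : Type*} [Group Q] {A : Subgroup Q} {ι : Type} [Fintype ι] [DecidableEq ι] {F : Type*}
    [Field F] {S : Subgroup (GL ι F)} (m : Model Q S) {P : Subgroup (GL ι F)}
    (hP : Cfsg.Geo.IsResidualCore (m.hat A) P)

include hP

theorem map_le : (P.subgroupOf S).map m.π ≤ A := by
  rintro _ ⟨s, hs, rfl⟩
  exact (m.mem_hat_iff s).1 (hP.le hs)

theorem map_normal : ∀ a ∈ A, ∀ n ∈ (P.subgroupOf S).map m.π, a * n * a⁻¹ ∈ (P.subgroupOf S).map m.π := by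
  rintro a ha _ ⟨p, hp, rfl⟩
  obtain ⟨s, rfl⟩ := m.surj a
  have hs : (s : GL ι F) ∈ m.hat A := (m.mem_hat_iff s).2 ha
  exact ⟨s * p * s⁻¹, hP.normal _ hs _ hp, by rw [map_mul, map_mul, map_inv]⟩

theorem map_cent : ∀ a ∈ A, (∀ n ∈ (P.subgroupOf S).map m.π, a * n = n * a) → a = 1 := by
  intro a ha hc
  obtain ⟨s, rfl⟩ := m.surj a
  have hs : (s : GL ι F) ∈ m.hat A := (m.mem_hat_iff s).2 ha
  have hPS : P ≤ S := hP.le.trans (m.hat_le A)
  rw [m.ker]
  apply hP.centralizer_scalar _ hs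
  intro x hx
  have h1 := hc (m.π ⟨x, hPS hx⟩) ⟨⟨x, hPS hx⟩, hx, rfl⟩
  have h2 : m.π (s * ⟨x, hPS hx⟩ * s⁻¹ * ⟨x, hPS hx⟩⁻¹) = 1 := by
    rw [map_mul, map_mul, map_mul, map_inv, map_inv, h1]
    group
  exact (m.ker _).1 h2

theorem map_simple : IsSimpleGroup ((P.subgroupOf S).map m.π) := by
  have hPS : P ≤ S := hP.le.trans (m.hat_le A)
  let f : P →* Q := m.π.comp (Subgroup.inclusion hPS)
  have hf : ∀ p : P, f p = m.π ⟨p, hPS p.2⟩ := fun p => rfl
  have hker : f.ker = (Cfsg.Geo.scalars ι F).subgroupOf P := by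
    ext p
    rw [MonoidHom.mem_ker, hf, m.ker]
    rfl
  have hr : f.range = (P.subgroupOf S).map m.π := by
    ext q
    constructor
    · rintro ⟨p, rfl⟩
      exact ⟨⟨p, hPS p.2⟩, p.2, rfl⟩
    · rintro ⟨s, hs, rfl⟩
      exact ⟨⟨s, hs⟩, rfl⟩
  rw [← hr]
  haveI := hP.simple
  exact ((QuotientGroup.quotientMulEquivOfEq hker).symm.trans (QuotientGroup.quotientKerEquivRange f)).symm.isSimpleGroup

end data

/-- **The kill, matrix form.** -/
theorem kill_mat {Q : Type*} [Group Q] [Finite Q] {A : Subgroup Q} {Γ : Subgroup (MulAut Q)} (h : EPT A Γ) {ι : Type}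
    [Fintype ι] [DecidableEq ι] {F : Type*} [Field F] {S : Subgroup (GL ι F)} (m : Model Q S) {P : Subgroup (GL ι F)}
    (hP : Cfsg.Geo.IsResidualCore (m.hat A) P) (hsc : ∀ s ∈ S, s ∈ Cfsg.Geo.scalars ι F → s = 1) {x b : GL ι F} (hx : x ∈ S)
    (hK : KD P x b) : False := by
  have hPS : P ≤ S := hP.le.trans (m.hat_le A)
  have hinj : Function.Injective m.π := by
    rw [injective_iff_map_eq_one]
    intro s hs
    exact Subtype.ext (hsc s s.2 ((m.ker s).1 hs))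
  have h1 : KD ((P.subgroupOf S).map S.subtype) (S.subtype ⟨x, hx⟩) (S.subtype ⟨b, hPS hK.mem⟩) := by
    rw [Subgroup.subgroupOf_map_subtype, inf_eq_left.2 hPS]
    exact hK
  exact ept_kill h (map_le m hP) (map_normal m hP) (map_cent m hP) (map_simple m hP)
    ((h1.of_map S.subtype S.subtype_injective).map m.π hinj)

/-! ### scalars -/

theorem scalar_omega {F : Type*} [Field F] (s : GL I7 F) (hs : s ∈ omegaGL (quadFormOdd 3 F))
    (hsc : s ∈ Cfsg.Geo.scalars I7 F) : s = 1 := by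
  obtain ⟨c, hc⟩ := (Cfsg.Geo.mem_scalars_iff s).1 hsc
  obtain ⟨⟨s', hs'⟩, hs1, rfl⟩ := hs
  -- determinant
  have hdet : Matrix.GeneralLinearGroup.det s' = 1 := by
    let f : ↥(isometryGroup F (quadFormOdd 3 F)) →* Fˣ := (Matrix.GeneralLinearGroup.det).comp (Subgroup.subtype _)
    have h1 : Omega F (quadFormOdd 3 F) ≤ f.ker := Abelianization.commutator_subset_ker f
    exact h1 hs1
  have hc' : (s' : Matrix I7 I7 F) = (c : F) • 1 := hc
  have h1 : (c : F) ^ 7 = 1 := by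
    have h2 := congrArg Units.val hdet
    rw [Matrix.GeneralLinearGroup.val_det_apply, hc', Matrix.det_smul, Matrix.det_one, mul_one, Units.val_one] at h2
    have h3 : Fintype.card I7 = 7 := by decide
    rwa [h3] at h2
  have h2 : (c : F) ^ 2 = 1 := by
    have h3 := hs' (Pi.single (.inl ()) 1) (Pi.single (.inl ()) 1)
    have h4 : quadFormOdd 3 F ((s' : Matrix I7 I7 F) *ᵥ (Pi.single (.inl ()) 1)) =
      quadFormOdd 3 F (Pi.single (.inl ()) 1) := h3
    rw [hc', Matrix.smul_mulVec, Matrix.one_mulVec] at h4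
    simpa [quadFormOdd] using h4
  have h3 : (c : F) = 1 := by
    have e : (c : F) ^ 7 = ((c : F) ^ 2) ^ 3 * c := by ring
    rw [e, h2, one_pow, one_mul] at h1
    exact h1
  apply Units.ext
  show (s' : Matrix I7 I7 F) = 1
  rw [hc', h3, one_smul]

theorem scalar_sp {F : Type*} [Field F] (h2 : (2 : F) = 0) (s : GL I6 F) (hs : s ∈ spGL 3 F)
    (hsc : s ∈ Cfsg.Geo.scalars I6 F) : s = 1 := by
  obtain ⟨c, hc⟩ := (Cfsg.Geo.mem_scalars_iff s).1 hsc
  have h1 := sp_iff.1 hs (Pi.single (.inl 0) 1) (Pi.single (.inr 0) 1)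
  rw [hc, Matrix.smul_mulVec, Matrix.one_mulVec, Matrix.smul_mulVec, Matrix.one_mulVec] at h1
  have h3 : ∀ (a b : F) (u v : I6 → F), sympForm 3 F (a • u) (b • v) = a * b * sympForm 3 F u v := by
    intro a b u v
    rw [sympForm, sympForm, Matrix.mulVec_smul, smul_dotProduct, dotProduct_smul, smul_eq_mul, smul_eq_mul, mul_assoc]
  have h4 : sympForm 3 F (Pi.single (.inl 0) 1) (Pi.single (.inr 0) 1) ≠ 0 := by
    rw [symp_eq h2]
    simp [bl, inc6]
  rw [h3] at h1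
  have h5 : (c : F) * c = 1 := mul_right_cancel₀ h4 (by rw [h1, one_mul])
  have h6 : ((c : F) - 1) ^ 2 = 0 := by linear_combination h5 + (1 - (c : F)) * h2
  have h7 : (c : F) = 1 := sub_eq_zero.1 (pow_eq_zero_iff (two_ne_zero) |>.1 h6)
  apply Units.ext
  rw [hc, h7, one_smul]
  rfl

/-! ### the theorems -/

theorem exists_s {F : Type*} [Field F] [Finite F] (h3 : 3 ≤ Nat.card F) : ∃ s : F, s ≠ 0 ∧ s ≠ 1 := by
  classical
  haveI := Fintype.ofFinite F
  by_contra hcon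
  push Not at hcon
  have h1 : (Finset.univ : Finset F) ⊆ {0, 1} := by
    intro x _
    by_cases hx : x = 0
    · simp [hx]
    · simp [hcon x hx]
  have h2 := Finset.card_le_card h1
  have h4 : ({0, 1} : Finset F).card ≤ 2 := Finset.card_le_two
  rw [Finset.card_univ, ← Nat.card_eq_fintype_card] at h2
  omega

/-- an isomorphism with the Chevalley group -/
theorem exists_f {F : Type} [Field F] [Fintype F] (p : ℕ) [Fact p.Prime] [CharP F p] {ι : Type} [Fintype ι] [DecidableEq ι]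
    {H P : Subgroup (GL ι F)} (hP : Cfsg.Geo.IsResidualCore H P) (h3 : 3 ≤ Fintype.card F)
    (e : (P ⧸ (Cfsg.Geo.scalars ι F).subgroupOf P) ≃* Cfsg.Lie.G2 F) : Nonempty (P ≃* Cfsg.Agent.H927.G2.GK F) := by
  obtain ⟨e2⟩ := Cfsg.Agent.H638.G2Iso.equiv (F := F)
  exact Cfsg.Agent.H48.DsChev.g2_equiv p (core_of_residual hP) h3 (e.trans e2)

/-- **`G₂(q) < Ω₇(q)` gives no extremely primitive group.** -/
theorem g2_omega7 {Q : Type*} [Group Q] [Finite Q] {A : Subgroup Q} {Γ : Subgroup (MulAut Q)} (h : EPT A Γ)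
    {F : Type} [Field F] [Fintype F] (ho : Odd (Fintype.card F)) (m : Model Q (Cfsg.Geo.omegaGL (Cfsg.quadFormOdd 3 F)))
    {P : Subgroup (GL I7 F)} (hP : Cfsg.Geo.IsResidualCore (m.hat A) P)
    (e : (P ⧸ (Cfsg.Geo.scalars I7 F).subgroupOf P) ≃* Cfsg.Lie.G2 F) : False := by
  obtain ⟨p, hp⟩ := CharP.exists F
  haveI : Fact p.Prime := ⟨CharP.char_is_prime F p⟩
  have h3 : 3 ≤ Fintype.card F := by
    have := Fintype.one_lt_card (α := F)
    rw [Nat.odd_iff] at ho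
    omega
  have h3' : 3 ≤ Nat.card F := by rwa [Nat.card_eq_fintype_card]
  have h2 : (2 : F) ≠ 0 := by
    intro h0
    have h1 : p ∣ 2 := by
      rw [← CharP.cast_eq_zero_iff F p]
      exact_mod_cast h0
    have h4 : p = 2 := (Nat.prime_dvd_prime_iff_eq Fact.out Nat.prime_two).1 h1
    subst h4
    obtain ⟨k, -, hk⟩ := FiniteField.card F 2
    rw [hk] at ho
    exact (Nat.not_even_iff_odd.2 ho) (Nat.even_pow.2 ⟨even_two, k.ne_zero⟩)
  obtain ⟨f⟩ := exists_f p hP h3 e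
  obtain ⟨θ, hθ⟩ := rep p (core_of_residual hP) h3' f (by decide) (M7_nat h2)
  obtain ⟨s, hs, hs1⟩ := exists_s h3'
  have hPS : P ≤ Cfsg.Geo.omegaGL (Cfsg.quadFormOdd 3 F) := hP.le.trans (m.hat_le A)
  have hiso : P ≤ isometryGroup F (quadFormOdd 3 F) := by
    intro g hg
    obtain ⟨⟨g', hg'⟩, -, rfl⟩ := hPS hg
    exact hg'
  have hx := x_mem_seven h2 hs hs1 hθ hP.absIrred hiso
  have hK := ((M7 h2).kd (one_ne_zero) hs hs1).map (MulAut.conj θ).toMonoidHom (MulAut.conj θ).injective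
  rw [← hθ] at hK
  exact kill_mat h m hP scalar_omega hx hK

/-- **`G₂(q) < Sp₆(q)`, `q ≥ 4` even, gives no extremely primitive group.** -/
theorem g2_sp6 {Q : Type*} [Group Q] [Finite Q] {A : Subgroup Q} {Γ : Subgroup (MulAut Q)} (h : EPT A Γ)
    {F : Type} [Field F] [Fintype F] (hF : Even (Fintype.card F)) (hF2 : Fintype.card F ≠ 2)
    (m : Model Q (Cfsg.spGL 3 F)) {P : Subgroup (GL I6 F)} (hP : Cfsg.Geo.IsResidualCore (m.hat A) P)
    (e : (P ⧸ (Cfsg.Geo.scalars I6 F).subgroupOf P) ≃* Cfsg.Lie.G2 F) : False := by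
  obtain ⟨p, hp⟩ := CharP.exists F
  haveI : Fact p.Prime := ⟨CharP.char_is_prime F p⟩
  have h3 : 3 ≤ Fintype.card F := by
    have := Fintype.one_lt_card (α := F)
    omega
  have h3' : 3 ≤ Nat.card F := by rwa [Nat.card_eq_fintype_card]
  have h2 : (2 : F) = 0 := by
    obtain ⟨k, -, hk⟩ := FiniteField.card F p
    rw [hk, Nat.even_pow] at hF
    have h4 : p = 2 := (Nat.Prime.even_iff Fact.out).1 hF.1
    subst h4
    exact_mod_cast CharP.cast_eq_zero F 2
  obtain ⟨f⟩ := exists_f p hP h3 e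
  obtain ⟨θ, hθ⟩ := rep p (core_of_residual hP) h3' f (by decide) (M6_nat h2)
  obtain ⟨s, hs, hs1⟩ := exists_s h3'
  have hPS : P ≤ Cfsg.spGL 3 F := hP.le.trans (m.hat_le A)
  have hx := x_mem_six h2 hθ hP.absIrred hPS
  have hK := ((M6 h2).kd (one_ne_zero) hs hs1).map (MulAut.conj θ).toMonoidHom (MulAut.conj θ).injective
  rw [← hθ] at hK
  exact kill_mat h m hP (scalar_sp h2) hx hK

/-- the same with `HasSoc` and the residual class -/
theorem g2_omega7' {Q : Type*} [Group Q] [Finite Q] {A : Subgroup Q} {Γ : Subgroup (MulAut Q)} (h : EPT A Γ)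
    {F : Type} [Field F] [Fintype F] (ho : Odd (Fintype.card F)) (m : Model Q (Cfsg.Geo.omegaGL (Cfsg.quadFormOdd 3 F)))
    (hres : Cfsg.Geo.InOrthogonalResidualClass (m.hat A)) (hA : HasSoc A (Cfsg.Lie.G2 F)) : False := by
  obtain ⟨P, hP, -⟩ := hres
  have h3 : 3 ≤ Nat.card F := by
    have := Fintype.one_lt_card (α := F)
    rw [Nat.odd_iff] at ho
    rw [Nat.card_eq_fintype_card]
    omega
  obtain ⟨e⟩ := hasSoc_unique (hasSoc_of_core m hP) hA hP.simple (simple_G2 h3)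
  exact g2_omega7 h ho m hP e

/-- the same with `HasSoc` and the residual class -/
theorem g2_sp6' {Q : Type*} [Group Q] [Finite Q] {A : Subgroup Q} {Γ : Subgroup (MulAut Q)} (h : EPT A Γ)
    {F : Type} [Field F] [Fintype F] (hF : Even (Fintype.card F)) (hF2 : Fintype.card F ≠ 2)
    (m : Model Q (Cfsg.spGL 3 F)) (hres : Cfsg.Geo.InSymplecticResidualClass (m.hat A))
    (hA : HasSoc A (Cfsg.Lie.G2 F)) : False := by
  obtain ⟨P, hP, -⟩ := hres
  have h3 : 3 ≤ Nat.card F := by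
    have := Fintype.one_lt_card (α := F)
    rw [Nat.card_eq_fintype_card]
    omega
  obtain ⟨e⟩ := hasSoc_unique (hasSoc_of_core m hP) hA hP.simple (simple_G2 h3)
  exact g2_sp6 h hF hF2 m hP e

end Cfsg.Agent.H870.GE
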