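import Cfsg.Agent.H870.GE.Form

/-!
# The model of dimension 7 (odd characteristic) and of dimension 6 (characteristic 2) (helper870, for S3499)
-/

set_option autoImplicit false
set_option linter.unusedSectionVars false
set_option linter.unusedSimpArgs false

namespace Cfsg.Agent.H870.GE

open Cfsg Cfsg.Geo Matrix Cfsg.Agent.H161.Oct Subgroup Cfsg.Agent.H64.SubG2
open scoped commutatorElement

variable {F : Type*} [Field F]

/-! ### the forms of elements of the representation -/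

theorem bl_of_nm {c : V F ≃ₗ[F] V F} (h : ∀ z, nm (c z) = nm z) (z w : V F) : bl (c z) (c w) = bl z w := by
  have h3 := h (z + w)
  rw [map_add, nm_add, nm_add, h, h] at h3
  exact add_left_cancel h3

theorem tr_o_smul {a : F} {z : V F} (hz : tr z = 0) (h : tr (z + a • o) = 0) : a * 2 = 0 := by
  rw [tr_add, hz, zero_add, tr_smul, tr_o] at h
  exact h

/-- the bilinear form of the representation -/
theorem Md.bl_rho {ι : Type} (M : Md ι F) {f : ↥(TO F)} (h : ∀ z, nm (f.1 z) = nm z) (u v : ι → F) :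
    bl (M.inc (M.rho f u)) (M.inc (M.rho f v)) = bl (M.inc u) (M.inc v) := by
  obtain ⟨a, ha⟩ := M.inc_rho f u
  obtain ⟨b, hb⟩ := M.inc_rho f v
  have hu : tr (f.1 (M.inc u)) = 0 := by rw [f.2.2, M.tr_inc]
  have hv : tr (f.1 (M.inc v)) = 0 := by rw [f.2.2, M.tr_inc]
  have ha2 : a * 2 = 0 := tr_o_smul hu (by rw [← ha, M.tr_inc])
  rw [ha, hb, bl_add, bl_add', bl_add', bl_smul, bl_smul, bl_smul', bl_smul', bl_o, bl_comm o, bl_o, hu, hv, bl_o, tr_o,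
    mul_zero, mul_zero, add_zero, zero_add, bl_of_nm h]
  linear_combination b * ha2

/-! ### dimension 7 -/

/-- the model of dimension 7 -/
def M7 (h2 : (2 : F) ≠ 0) : Md I7 F where
  inc := inc F
  cor := cor F
  cor_inc := cor_inc
  tr_inc := tr_inc
  inc_cor z hz := ⟨0, by rw [inc_cor hz, zero_smul, add_zero]⟩
  ker a ha := by
    rw [tr_smul, tr_o] at ha
    rw [(mul_eq_zero.1 ha).resolve_right h2, zero_smul, map_zero]

theorem M7_nat (h2 : (2 : F) ≠ 0) : (M7 h2).Nat where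
  inc_map τ v := by
    funext i
    change inc F _ i = τ (inc F v i)
    fin_cases i <;> simp [inc]
  cor_map τ x := by
    funext i
    change cor F _ i = τ (cor F x i)
    rcases i with _ | j | j
    · rfl
    · fin_cases j <;> rfl
    · fin_cases j <;> rfl

/-- elements preserving the norm give isometries -/
theorem M7_iso (h2 : (2 : F) ≠ 0) {c : V F ≃ₗ[F] V F} (hc : c ∈ TO F) (h : ∀ z, nm (c z) = nm z) :
    (M7 h2).rhoG ⟨c, hc⟩ ∈ isometryGroup F (quadFormOdd 3 F) := by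
  intro v w
  show quadFormOdd 3 F ((((M7 h2).rhoG ⟨c, hc⟩ : GL I7 F) : Matrix I7 I7 F) *ᵥ v) = quadFormOdd 3 F v
  rw [Md.rhoG_mulVec, quad_eq, quad_eq]
  obtain ⟨a, ha⟩ := (M7 h2).inc_rho ⟨c, hc⟩ v
  have hu : tr (c ((M7 h2).inc v)) = 0 := by rw [hc.2, (M7 h2).tr_inc]
  have ha2 : a * 2 = 0 := tr_o_smul hu (by
    have := (M7 h2).tr_inc ((M7 h2).rho ⟨c, hc⟩ v)
    rw [ha] at this
    exact this)
  have h1 : (inc F) ((M7 h2).rho ⟨c, hc⟩ v) = c (inc F v) := by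
    refine ha.trans ?_
    rw [(mul_eq_zero.1 ha2).resolve_right h2, zero_smul, add_zero]
    rfl
  rw [h1, h]

/-- a diagonal isometry -/
def ddF (s : F) (x : V F) : V F := ![x 0, s * x 1, x 2, x 3, s⁻¹ * x 4, x 5, x 6, x 7]

theorem ddF0 (s : F) (x : V F) : ddF s x 0 = x 0 := rfl
theorem ddF1 (s : F) (x : V F) : ddF s x 1 = s * x 1 := rfl
theorem ddF2 (s : F) (x : V F) : ddF s x 2 = x 2 := rfl
theorem ddF3 (s : F) (x : V F) : ddF s x 3 = x 3 := rfl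
theorem ddF4 (s : F) (x : V F) : ddF s x 4 = s⁻¹ * x 4 := rfl
theorem ddF5 (s : F) (x : V F) : ddF s x 5 = x 5 := rfl
theorem ddF6 (s : F) (x : V F) : ddF s x 6 = x 6 := rfl
theorem ddF7 (s : F) (x : V F) : ddF s x 7 = x 7 := rfl

/-- a diagonal isometry -/
def dd {s : F} (hs : s ≠ 0) : V F ≃ₗ[F] V F where
  toFun := ddF s
  map_add' x y := by
    apply ext8 <;> simp only [ddF0, ddF1, ddF2, ddF3, ddF4, ddF5, ddF6, ddF7, Pi.add_apply] <;> ring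
  map_smul' c x := by
    apply ext8 <;> simp only [ddF0, ddF1, ddF2, ddF3, ddF4, ddF5, ddF6, ddF7, Pi.smul_apply, smul_eq_mul,
      RingHom.id_apply] <;> ring
  invFun := ddF s⁻¹
  left_inv x := by
    apply ext8 <;> simp only [ddF0, ddF1, ddF2, ddF3, ddF4, ddF5, ddF6, ddF7] <;> field_simp
  right_inv x := by
    apply ext8 <;> simp only [ddF0, ddF1, ddF2, ddF3, ddF4, ddF5, ddF6, ddF7] <;> field_simp

theorem dd_apply {s : F} (hs : s ≠ 0) (x : V F) : dd hs x = ddF s x := rfl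

theorem dd_inv_apply {s : F} (hs : s ≠ 0) (x : V F) : (dd hs)⁻¹ x = ddF s⁻¹ x := rfl

theorem dd_mem {s : F} (hs : s ≠ 0) : dd hs ∈ TO F := by
  refine ⟨?_, fun z => ?_⟩
  · rw [dd_apply]
    apply ext8
    · rw [ddF0]
    · rw [ddF1, o1, mul_zero]
    · rw [ddF2]
    · rw [ddF3]
    · rw [ddF4, o4, mul_zero]
    · rw [ddF5]
    · rw [ddF6]
    · rw [ddF7]
  · rw [dd_apply, tr, tr, ddF0, ddF7]

theorem dd_nm {s : F} (hs : s ≠ 0) (z : V F) : nm (dd hs z) = nm z := by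
  rw [dd_apply, nm, nm, ddF0, ddF1, ddF2, ddF3, ddF4, ddF5, ddF6, ddF7]
  field_simp

theorem C_eq_comm {s : F} (hs : s ≠ 0) {t : F} (ht : (s - 1) * t = 1) : C (1 : F) = dd hs * C t * (dd hs)⁻¹ * (C t)⁻¹ := by
  refine LinearEquiv.ext fun x => ?_
  rw [C_inv, LinearEquiv.mul_apply, LinearEquiv.mul_apply, LinearEquiv.mul_apply, dd_inv_apply, dd_apply, C_apply, C_apply,
    C_apply]
  apply ext8
  · rw [ddF0, CF0, CF0, ddF0, CF0]
  · rw [ddF1, CF1, CF1, ddF1, ddF5, CF1, CF5]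
    field_simp
    linear_combination (-x 5) * ht
  · rw [ddF2, CF2, CF2, ddF2, ddF4, CF2, CF4, inv_inv]
    linear_combination (x 4) * ht
  · rw [ddF3, CF3, CF3, ddF3, CF3]
  · rw [ddF4, CF4, CF4, ddF4, CF4]
    field_simp
  · rw [ddF5, CF5, CF5, ddF5, CF5]
  · rw [ddF6, CF6, CF6, ddF6, CF6]
  · rw [ddF7, CF7, CF7, ddF7, CF7]

/-- a commutator of isometries is in `Ω` -/
theorem comm_mem_omega {ι : Type} [Fintype ι] [DecidableEq ι] {Q : (ι → F) → F} {a b : GL ι F}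
    (ha : a ∈ isometryGroup F Q) (hb : b ∈ isometryGroup F Q) : a * b * a⁻¹ * b⁻¹ ∈ omegaGL Q := by
  refine ⟨⁅(⟨a, ha⟩ : isometryGroup F Q), ⟨b, hb⟩⁆, ?_, rfl⟩
  exact Subgroup.commutator_mem_commutator (mem_top _) (mem_top _)

theorem M7_x (h2 : (2 : F) ≠ 0) {s : F} (hs : s ≠ 0) {t : F} (ht : (s - 1) * t = 1) : (M7 h2).x 1 =
    (M7 h2).rhoG ⟨dd hs, dd_mem hs⟩ * (M7 h2).x t * ((M7 h2).rhoG ⟨dd hs, dd_mem hs⟩)⁻¹ * ((M7 h2).x t)⁻¹ := by
  rw [Md.x, Md.x, ← map_inv, ← map_inv, ← map_mul, ← map_mul, ← map_mul]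
  congr 1
  exact Subtype.ext (C_eq_comm hs ht)

/-- the Gram matrix -/
def G7 (F : Type*) [Field F] : Matrix I7 I7 F :=
  Matrix.fromBlocks (Matrix.of fun _ _ => 2) 0 0 (Matrix.fromBlocks 0 1 1 0)

theorem G7_unit (h2 : (2 : F) ≠ 0) : IsUnit (G7 F) := by
  have h1 : G7 F * Matrix.fromBlocks (Matrix.of fun _ _ => 2⁻¹) 0 0 (Matrix.fromBlocks 0 1 1 0) = 1 := by
    rw [G7, Matrix.fromBlocks_multiply, Matrix.fromBlocks_multiply]
    have e : (Matrix.of fun (_ _ : Unit) => (2 : F)) * (Matrix.of fun (_ _ : Unit) => (2 : F)⁻¹) = 1 := by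
      ext i j
      simp [Matrix.mul_apply, h2]
    rw [e]
    simp
  exact IsUnit.of_mul_eq_one _ h1

/-- the polar form -/
def B7 (u v : I7 → F) : F := quadFormOdd 3 F (u + v) - quadFormOdd 3 F u - quadFormOdd 3 F v

theorem B7_eq (u v : I7 → F) : B7 u v = u ⬝ᵥ (G7 F *ᵥ v) := by
  rw [G7, Matrix.fromBlocks_mulVec, B7]
  simp [dotProduct, Fintype.sum_sum_type, quadFormOdd, Matrix.fromBlocks_mulVec, Fin.sum_univ_three, Matrix.mulVec,
    Matrix.one_apply]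
  ring

theorem B7_self (v : I7 → F) : B7 v v = 2 * quadFormOdd 3 F v := by
  rw [B7]
  simp [quadFormOdd, Fin.sum_univ_three]
  ring

theorem B7_iso {h : GL I7 F} (hh : h ∈ isometryGroup F (quadFormOdd 3 F)) (u v : I7 → F) :
    B7 ((h : Matrix I7 I7 F) *ᵥ u) ((h : Matrix I7 I7 F) *ᵥ v) = B7 u v := by
  have h1 : ∀ w, quadFormOdd 3 F ((h : Matrix I7 I7 F) *ᵥ w) = quadFormOdd 3 F w := fun w => hh w w
  rw [B7, B7, ← Matrix.mulVec_add, h1, h1, h1]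

theorem P0_iso (h2 : (2 : F) ≠ 0) {h : GL I7 F} (hh : h ∈ (M7 h2).P0) : h ∈ isometryGroup F (quadFormOdd 3 F) := by
  obtain ⟨f, hf, rfl⟩ := (M7 h2).mem_P0.1 hh
  exact M7_iso h2 _ (map_nm hf)

/-- **`x` is in `Ω₇`.** -/
theorem x_mem_seven (h2 : (2 : F) ≠ 0) {s : F} (hs : s ≠ 0) (hs1 : s ≠ 1) {P : Subgroup (GL I7 F)} {θ : GL I7 F}
    (hP : P = (M7 h2).P0.map (MulAut.conj θ).toMonoidHom) (habs : ActsAbsolutelyIrreducibly (matrixSet P))
    (hiso : P ≤ isometryGroup F (quadFormOdd 3 F)) : θ * (M7 h2).x 1 * θ⁻¹ ∈ omegaGL (quadFormOdd 3 F) := by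
  obtain ⟨κ, hκ, h1⟩ := form_scal' (f := B7) (G7_unit h2) hP habs.2 B7_eq (fun h hh => B7_iso (P0_iso h2 hh))
    (fun h hh => B7_iso (hiso hh))
  have h3 : ∀ v, quadFormOdd 3 F ((θ : Matrix I7 I7 F) *ᵥ v) = κ * quadFormOdd 3 F v := by
    intro v
    have h4 := h1 v v
    rw [B7_self, B7_self] at h4
    have h5 : 2 * (quadFormOdd 3 F ((θ : Matrix I7 I7 F) *ᵥ v) - κ * quadFormOdd 3 F v) = 0 := by linear_combination h4
    exact sub_eq_zero.1 ((mul_eq_zero.1 h5).resolve_left h2)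
  have h4 : ∀ g ∈ isometryGroup F (quadFormOdd 3 F), θ * g * θ⁻¹ ∈ isometryGroup F (quadFormOdd 3 F) := by
    intro g hg v w
    show quadFormOdd 3 F (((θ * g * θ⁻¹ : GL I7 F) : Matrix I7 I7 F) *ᵥ v) = quadFormOdd 3 F v
    have hg' : ∀ w, quadFormOdd 3 F ((g : Matrix I7 I7 F) *ᵥ w) = quadFormOdd 3 F w := fun w => hg w w
    rw [Units.val_mul, Units.val_mul, ← Matrix.mulVec_mulVec, ← Matrix.mulVec_mulVec, h3, hg', ← h3, Matrix.mulVec_mulVec,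
      ← Units.val_mul, mul_inv_cancel, Units.val_one, Matrix.one_mulVec]
  have hs1' : s - 1 ≠ 0 := sub_ne_zero.2 hs1
  rw [M7_x h2 hs (mul_inv_cancel₀ hs1')]
  have h5 := comm_mem_omega (h4 _ (M7_iso h2 (dd_mem hs) (dd_nm hs)))
    (h4 _ (M7_iso h2 (sp_YC (s - 1)⁻¹).mem_TO (fun z => (sp_YC (s - 1)⁻¹).isoc z)))
  have e : θ * ((M7 h2).rhoG ⟨dd hs, dd_mem hs⟩ * (M7 h2).x (s - 1)⁻¹ * ((M7 h2).rhoG ⟨dd hs, dd_mem hs⟩)⁻¹ *
      ((M7 h2).x (s - 1)⁻¹)⁻¹) * θ⁻¹ = (θ * (M7 h2).rhoG ⟨dd hs, dd_mem hs⟩ * θ⁻¹) * (θ * (M7 h2).x (s - 1)⁻¹ * θ⁻¹) *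
      (θ * (M7 h2).rhoG ⟨dd hs, dd_mem hs⟩ * θ⁻¹)⁻¹ * (θ * (M7 h2).x (s - 1)⁻¹ * θ⁻¹)⁻¹ := by group
  rw [e]
  exact h5

end Cfsg.Agent.H870.GE
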