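import Cfsg.Agent.H870.GE.Seven
import Cfsg.Prelude.Def_ClassicalGeometry

/-!
# The model of dimension 6, characteristic 2 (helper870, for S3499)
-/

set_option autoImplicit false
set_option linter.unusedSectionVars false
set_option linter.unusedSimpArgs false

namespace Cfsg.Agent.H870.GE

open Cfsg Cfsg.Geo Matrix Cfsg.Agent.H161.Oct Subgroup

variable {F : Type*} [Field F]

/-- the index type -/
abbrev I6 : Type := Fin 3 ⊕ Fin 3

/-- the embedding -/
def inc6 (F : Type*) [Field F] : (I6 → F) →ₗ[F] V F where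
  toFun v := ![0, v (.inl 0), v (.inl 1), v (.inl 2), v (.inr 0), v (.inr 1), v (.inr 2), 0]
  map_add' v w := by
    funext i
    fin_cases i <;> simp
  map_smul' c v := by
    funext i
    fin_cases i <;> simp

/-- the coordinates -/
def cor6 (F : Type*) [Field F] : V F →ₗ[F] (I6 → F) where
  toFun x := fun i => match i with
    | .inl j => ![x 1, x 2, x 3] j
    | .inr j => ![x 4, x 5, x 6] j
  map_add' v w := by
    funext i
    rcases i with j | j
    · fin_cases j <;> rfl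
    · fin_cases j <;> rfl
  map_smul' c v := by
    funext i
    rcases i with j | j
    · fin_cases j <;> rfl
    · fin_cases j <;> rfl

theorem cor6_inc6 (v : I6 → F) : cor6 F (inc6 F v) = v := by
  funext i
  rcases i with j | j
  · fin_cases j <;> rfl
  · fin_cases j <;> rfl

theorem inc6_cor6 (h2 : (2 : F) = 0) {z : V F} (hz : tr z = 0) : inc6 F (cor6 F z) = z + z 0 • o := by
  have h7 : z 7 = z 0 := by
    rw [tr] at hz
    linear_combination hz - z 0 * h2
  apply ext8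
  · show (0 : F) = z 0 + z 0 * 1
    linear_combination (-z 0) * h2
  · show z 1 = z 1 + z 0 * 0
    ring
  · show z 2 = z 2 + z 0 * 0
    ring
  · show z 3 = z 3 + z 0 * 0
    ring
  · show z 4 = z 4 + z 0 * 0
    ring
  · show z 5 = z 5 + z 0 * 0
    ring
  · show z 6 = z 6 + z 0 * 0
    ring
  · show (0 : F) = z 7 + z 0 * 1
    rw [h7]
    linear_combination (-z 0) * h2

/-- the model of dimension 6 -/
def M6 (h2 : (2 : F) = 0) : Md I6 F where
  inc := inc6 F
  cor := cor6 F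
  cor_inc := cor6_inc6
  tr_inc v := by
    show (0 : F) + 0 = 0
    ring
  inc_cor z hz := ⟨z 0, inc6_cor6 h2 hz⟩
  ker a _ := by
    rw [map_smul]
    have h1 : cor6 F (o : V F) = 0 := by
      funext i
      rcases i with j | j
      · fin_cases j <;> rfl
      · fin_cases j <;> rfl
    rw [h1, smul_zero]

theorem M6_nat (h2 : (2 : F) = 0) : (M6 h2).Nat where
  inc_map τ v := by
    funext i
    change inc6 F _ i = τ (inc6 F v i)
    fin_cases i <;> simp [inc6]
  cor_map τ x := by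
    funext i
    change cor6 F _ i = τ (cor6 F x i)
    rcases i with j | j
    · fin_cases j <;> rfl
    · fin_cases j <;> rfl

theorem symp_eq (h2 : (2 : F) = 0) (u v : I6 → F) : sympForm 3 F u v = bl (inc6 F u) (inc6 F v) := by
  have h1 : sympForm 3 F u v = u (.inr 0) * v (.inl 0) + u (.inr 1) * v (.inl 1) + u (.inr 2) * v (.inl 2) -
      (u (.inl 0) * v (.inr 0) + u (.inl 1) * v (.inr 1) + u (.inl 2) * v (.inr 2)) := by
    rw [sympForm, Matrix.J, Matrix.fromBlocks_mulVec]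
    simp [dotProduct, Fintype.sum_sum_type, Fin.sum_univ_three, Matrix.neg_mulVec]
    ring
  rw [h1]
  show _ = (0 : F) * 0 + 0 * 0 - (u (.inl 0) * v (.inr 0) + u (.inl 1) * v (.inr 1) + u (.inl 2) * v (.inr 2)) -
    (v (.inl 0) * u (.inr 0) + v (.inl 1) * u (.inr 1) + v (.inl 2) * u (.inr 2))
  linear_combination (v (.inl 0) * u (.inr 0) + v (.inl 1) * u (.inr 1) + v (.inl 2) * u (.inr 2)) * h2

/-- elements preserving the norm are symplectic -/
theorem M6_iso (h2 : (2 : F) = 0) {c : V F ≃ₗ[F] V F} (hc : c ∈ TO F) (h : ∀ z, nm (c z) = nm z) :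
    (M6 h2).rhoG ⟨c, hc⟩ ∈ spGL 3 F := by
  intro v w
  show sympForm 3 F ((((M6 h2).rhoG ⟨c, hc⟩ : GL I6 F) : Matrix I6 I6 F) *ᵥ v)
    ((((M6 h2).rhoG ⟨c, hc⟩ : GL I6 F) : Matrix I6 I6 F) *ᵥ w) = sympForm 3 F v w
  rw [Md.rhoG_mulVec, Md.rhoG_mulVec, symp_eq h2, symp_eq h2]
  exact (M6 h2).bl_rho h v w

theorem sp_iff {h : GL I6 F} : h ∈ spGL 3 F ↔ ∀ u v, sympForm 3 F ((h : Matrix I6 I6 F) *ᵥ u) ((h : Matrix I6 I6 F) *ᵥ v) =
    sympForm 3 F u v := Iff.rfl

theorem P0_sp (h2 : (2 : F) = 0) {h : GL I6 F} (hh : h ∈ (M6 h2).P0) : h ∈ spGL 3 F := by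
  obtain ⟨f, hf, rfl⟩ := (M6 h2).mem_P0.1 hh
  exact M6_iso h2 _ (map_nm hf)

theorem J_unit : IsUnit (Matrix.J (Fin 3) F) := by
  refine IsUnit.of_mul_eq_one (-Matrix.J (Fin 3) F) ?_
  rw [mul_neg, Matrix.J_squared, neg_neg]

/-- **`x` is in `Sp₆`.** -/
theorem x_mem_six (h2 : (2 : F) = 0) {P : Subgroup (GL I6 F)} {θ : GL I6 F}
    (hP : P = (M6 h2).P0.map (MulAut.conj θ).toMonoidHom) (habs : ActsAbsolutelyIrreducibly (matrixSet P))
    (hiso : P ≤ spGL 3 F) : θ * (M6 h2).x 1 * θ⁻¹ ∈ spGL 3 F := by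
  obtain ⟨κ, hκ, h1⟩ := form_scal' (f := sympForm 3 F) J_unit hP habs.2 (fun u v => rfl)
    (fun h hh => sp_iff.1 (P0_sp h2 hh)) (fun h hh => sp_iff.1 (hiso hh))
  have h3 := sp_iff.1 (M6_iso h2 (sp_YC (1 : F)).mem_TO (fun z => (sp_YC (1 : F)).isoc z))
  rw [sp_iff]
  intro u v
  have e1 : ∀ w : I6 → F, (θ : Matrix I6 I6 F) *ᵥ (((θ⁻¹ : GL I6 F) : Matrix I6 I6 F) *ᵥ w) = w := fun w => by
    rw [Matrix.mulVec_mulVec, ← Units.val_mul, mul_inv_cancel, Units.val_one, Matrix.one_mulVec]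
  rw [Units.val_mul, Units.val_mul, ← Matrix.mulVec_mulVec, ← Matrix.mulVec_mulVec, ← Matrix.mulVec_mulVec,
    ← Matrix.mulVec_mulVec, h1]
  refine (congrArg (κ * ·) (h3 _ _)).trans ?_
  show κ * sympForm 3 F _ _ = _
  rw [← h1, e1, e1]

end Cfsg.Agent.H870.GE
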